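import Cfsg.Agent.Lib.KnownSimple.MultM.U33.Main
import Cfsg.Agent.Lib.KnownSimple.MultM.J2L.CertAll
import Cfsg.Agent.Lib.KnownSimple.MultM.J2L.Low

/-!
# The Schur multiplier
-/

set_option autoImplicit false

namespace Cfsg.Agent.Lib.KnownSimple.MultM.J2L

open Cfsg Cfsg.Spor Cfsg.Agent.Lib.Compute Cfsg.Agent.Lib.KnownSimple.PE Cfsg.Agent.Lib.KnownSimple.Leech
open Cfsg.Agent.Lib.KnownSimple Cfsg.Agent.Lib.KnownSimple.AutRigid Cfsg.Agent.Lib.KnownSimple.Pres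
open Cfsg.Agent.Lib.KnownSimple.MultC


theorem hMF : MF (stabOf ρ h0) :=
  MF_stab_of_letters (k := 4) C hρ (by decide) htr (by decide +kernel) (by rw [cardLS, card_P]; rfl)
    (MF_LS hPU hfU finj Cfsg.Agent.Lib.KnownSimple.MultM.U33.mfP)

theorem upperP (Γ : Type) [Group Γ] [Finite Γ] (σ : Γ →* P) (hσ : IsStemExtension σ) :
    ∃ π : Multiplicative (ZMod 2) →* σ.ker, Function.Surjective π :=
  upper C hP A B hcomm hρ htr hMF hrr.1 hrr.2 rfl hokR hloopR (qs := 23) (m := 2) (by decide +kernel) hcert Γ σ hσ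

theorem multP : HasCyclicSchurMultiplier P 2 := hasCyclic_of lowerP upperP

theorem mult : HasCyclicSchurMultiplier Cfsg.Spor.J2 2 :=
  hasSchur_congr Cfsg.Agent.Lib.KnownSimple.J2B.equivH.symm (hasSchur_congr e multP)

end Cfsg.Agent.Lib.KnownSimple.MultM.J2L
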