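import Cfsg.Agent.Lib.KnownSimple.MultM.J2L.Tab

/-!
# The relators and the commutators
-/

set_option autoImplicit false

namespace Cfsg.Agent.Lib.KnownSimple.MultM.J2L

open Cfsg Cfsg.Spor Cfsg.Agent.Lib.Compute Cfsg.Agent.Lib.KnownSimple.PE Cfsg.Agent.Lib.KnownSimple.Leech
open Cfsg.Agent.Lib.KnownSimple Cfsg.Agent.Lib.KnownSimple.AutRigid Cfsg.Agent.Lib.KnownSimple.Pres
open Cfsg.Agent.Lib.KnownSimple.MultC
open scoped commutatorElement


set_option maxRecDepth 100000 in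
/-- The relators up to rotations. -/
def R0 : List (List ℕ) := [[0,0],
  [2,2],
  [4,4],
  [6,6],
  [8,8],
  [0,2,0,2,0,2,0,2],
  [0,4,0,4,0,4,0,4],
  [0,6,0,6,0,6],
  [0,8,0,8,0,8,0,8],
  [2,4,2,4,2,4],
  [2,6,2,6,2,6],
  [2,8,2,8,2,8,2,8],
  [4,6,4,6,4,6,4,6],
  [4,8,4,8,4,8],
  [6,8,6,8],
  [0,2,0,2,4,0,4,2,0,2,4,0,4],
  [0,2,0,2,0,4,2,0,4,2,4,0,2,4],
  [0,2,4,0,2,4,2,0,4,2,0,4,0,4],
  [0,2,6,2,6,2,0,6,0,6],
  [0,2,0,2,4,6,4,0,4,6,4],
  [0,2,4,6,4,6,2,0,2,6,2],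
  [0,2,0,6,8,0,2,0,6,8,0,2,0,8,6],
  [0,2,0,8,0,2,6,0,8,0,6,8,2,0,8],
  [8,0,2,6,2,0,4,8,0,4,2,0,6,2,0,4,6,2,0,4]]
set_option maxRecDepth 100000 in
/-- The first words of the commutators. -/
def AL : List (List ℕ) := [[4,0,4],
  [6,2,4,2,0,2,4,2,6],
  [2,6,4,0,4,6,2],
  [4,2,0,2,4],
  [0,6,0,6,0]]
set_option maxRecDepth 100000 in
/-- The second words of the commutators. -/
def BL : List (List ℕ) := [[2,0,2],
  [6,2,8,2,6],
  [2,0,6,2,4,2,4,6,2],
  [8],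
  [0,8,0]]
/-- The first words of the commutators. -/
noncomputable def A (x : ℕ) : List ℕ := lg [] AL x
/-- The second words of the commutators. -/
noncomputable def B (x : ℕ) : List ℕ := lg [] BL x
/-- All the words. -/
noncomputable def RL : List (List ℕ) := R0 ++ (List.range d).map (rhoW A B)
set_option maxHeartbeats 0 in
set_option maxRecDepth 100000 in
theorem hrr : (∀ r ∈ R0, r ∈ stdRels S) ∧ (∀ r ∈ stdRels S, ∃ r₀ ∈ R0, ∃ k, r₀.rotate k = r) :=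
  of_chkRot (by decide +kernel)
set_option maxHeartbeats 0 in
set_option maxRecDepth 100000 in
theorem hokR : ∀ r ∈ RL, ∀ l ∈ r, l < 2 * d := words_of_chk (by decide +kernel)
set_option maxHeartbeats 0 in
set_option maxRecDepth 100000 in
theorem hloopR : ∀ r ∈ RL, ∀ i, i < n → actW C.τ r i = i := loops_of_chk (by decide +kernel)
set_option maxHeartbeats 0 in
set_option maxRecDepth 100000 in
theorem hrho0 : allBelow (fun x => allBelow (fun i => Nat.beq (actW CN.τ (rhoW A B x) i) i) N0) d = true := by decide +kernel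
theorem hrho : ∀ x, x < d → ev v (rhoW A B x) = 1 := by
  intro x hx
  refine word_one hρ0 hρ0inj (hokR _ (List.mem_append_right _ (List.mem_map.2 ⟨x, List.mem_range.2 hx, rfl⟩))) ?_
  exact (allBelow_iff _ _).1 hrho0 x hx
theorem hcomm : ∀ x, x < d → v x = ⁅ev v (A x), ev v (B x)⁆ := hcomm_of_rho hrho

end Cfsg.Agent.Lib.KnownSimple.MultM.J2L
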